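import Cfsg.Agent.Lib.Geometric.SympStab
import Cfsg.Agent.Lib.Geometric.SympDecomp
import Cfsg.Agent.Lib.Geometric.SympSubfield
import Cfsg.Agent.Lib.Geometric.SympQuad
import Cfsg.Agent.Lib.Geometric.SympPairSix
import Cfsg.Agent.Lib.Geometric.ExtField.SympMax
import Cfsg.Agent.Lib.Geometric.ExtField.SympUnitarySixMax
import Cfsg.Agent.Lib.Geometric.SOTensor.Max
import Cfsg.Agent.Lib.Geometric.TensorForm.NonScalar
import Cfsg.Agent.Lib.Geometric.TensorForm.Grow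

/-!
The members of geometric type of the symplectic group in dimension eight, apart from the normalisers
of groups of symplectic type, are maximal.
-/

set_option autoImplicit false

namespace CfsgLib.Geometric.SympEight

open Matrix

variable {F : Type*} [Field F] [Fintype F]

theorem item1 (W : Submodule F (Fin 4 ⊕ Fin 4 → F)) (hW : W ≠ ⊥)
    (hts : Cfsg.Geo.IsTotallySingularFor (Cfsg.sympForm 4 F) W) :
    Cfsg.Geo.IsMaximalIn (Cfsg.spGL 4 F)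
      (Cfsg.Geo.subspaceStabilizer W ⊓ Cfsg.spGL 4 F) :=
  Symp.stab_isMaximalIn_of_totallySingular (isSymplecticForm_sympForm 4 F) hW hts

theorem item2 (W : Submodule F (Fin 4 ⊕ Fin 4 → F)) (h0 : W ≠ ⊥)
    (hW : Cfsg.Geo.IsNondegenerateOn (Cfsg.sympForm 4 F) W) (hlt : Module.finrank F W < 4) :
    Cfsg.Geo.IsMaximalIn (Cfsg.spGL 4 F)
      (Cfsg.Geo.subspaceStabilizer W ⊓ Cfsg.spGL 4 F) := by
  have hcard : Fintype.card (Fin 4 ⊕ Fin 4) = 8 := by simp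
  exact Symp.stab_isMaximalIn_of_nondegenerate (isSymplecticForm_sympForm 4 F) h0 hW (by omega)

theorem item3 (hq : 3 ≤ Fintype.card F) (D : Fin 4 → Submodule F (Fin 4 ⊕ Fin 4 → F))
    (hD : Cfsg.Geo.IsNondegenerateMDecomposition (Cfsg.sympForm 4 F) 2 D) :
    Cfsg.Geo.IsMaximalIn (Cfsg.spGL 4 F)
      (Cfsg.Geo.decompositionStabilizer D ⊓ Cfsg.spGL 4 F) :=
  Symp.decompStab_isMaximalIn (isSymplecticForm_sympForm 4 F) hD (by omega)

theorem item4 (D : Fin 2 → Submodule F (Fin 4 ⊕ Fin 4 → F))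
    (hD : Cfsg.Geo.IsNondegenerateMDecomposition (Cfsg.sympForm 4 F) 4 D) :
    Cfsg.Geo.IsMaximalIn (Cfsg.spGL 4 F)
      (Cfsg.Geo.decompositionStabilizer D ⊓ Cfsg.spGL 4 F) :=
  Symp.decompStab_isMaximalIn (isSymplecticForm_sympForm 4 F) hD (by omega)

theorem item5 (hodd : Odd (Fintype.card F)) (D : Fin 2 → Submodule F (Fin 4 ⊕ Fin 4 → F))
    (hD : Cfsg.Geo.IsMDecomposition 4 D)
    (hts : ∀ i, Cfsg.Geo.IsTotallySingularFor (Cfsg.sympForm 4 F) (D i)) :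
    Cfsg.Geo.IsMaximalIn (Cfsg.spGL 4 F)
      (Cfsg.Geo.decompositionStabilizer D ⊓ Cfsg.spGL 4 F) :=
  Symp.pair_isMaximalIn_six (isSymplecticForm_sympForm 4 F)
    (CfsgLib.ClassicalForms.two_ne_zero_of_odd (by rwa [Nat.card_eq_fintype_card])) (by simp) hD hts

theorem item6 (K : Subalgebra F (Matrix (Fin 4 ⊕ Fin 4) (Fin 4 ⊕ Fin 4) F))
    (hK : Cfsg.Geo.IsFieldSubalgebra 2 K)
    (hsa : Cfsg.Geo.IsSelfAdjointFor (Cfsg.sympForm 4 F) K)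
    (halt : ∀ k ∈ K, ∀ v : (Fin 4 ⊕ Fin 4 → F),
      (Cfsg.sympForm 4 F) (Matrix.mulVec k v) v = 0) :
    Cfsg.Geo.IsMaximalIn (Cfsg.spGL 4 F)
      (Cfsg.Geo.subalgebraNormalizer K ⊓ Cfsg.spGL 4 F) := by
  letI := ExtF.fieldOfSubalg hK (by norm_num)
  have : Finite K := Finite.of_injective
    (fun x : K => (x : Matrix (Fin 4 ⊕ Fin 4) (Fin 4 ⊕ Fin 4) F)) Subtype.val_injective
  exact ExtF.symp_maximal' (isSymplecticForm_sympForm 4 F)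
    (show (Module.finrank F K).Prime by rw [hK.finrank_eq]; norm_num)
    (Or.inl (by simp)) K.val K
    (fun k => ⟨fun hk => ⟨⟨k, hk⟩, rfl⟩, fun ⟨a, ha⟩ => ha ▸ a.2⟩) hsa halt

theorem item7 (hodd : Odd (Fintype.card F))
    (K : Subalgebra F (Matrix (Fin 4 ⊕ Fin 4) (Fin 4 ⊕ Fin 4) F))
    (hK : Cfsg.Geo.IsFieldSubalgebra 2 K)
    (hac : Cfsg.Geo.IsAdjointClosedFor (Cfsg.sympForm 4 F) K)
    (hnsa : ¬ Cfsg.Geo.IsSelfAdjointFor (Cfsg.sympForm 4 F) K) :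
    Cfsg.Geo.IsMaximalIn (Cfsg.spGL 4 F)
      (Cfsg.Geo.subalgebraNormalizer K ⊓ Cfsg.spGL 4 F) :=
  ExtF.symp_unitary_maximal_six (isSymplecticForm_sympForm 4 F) (by simp) hodd K hK hac hnsa

theorem item8 (hodd : Odd (Fintype.card F)) (e : (Fin 4 ⊕ Fin 4) ≃ Fin 2 × Fin 4)
    (P : Matrix.GeneralLinearGroup (Fin 4 ⊕ Fin 4) F) (f₁ : (Fin 2 → F) → (Fin 2 → F) → F)
    (f₂ : (Fin 4 → F) → (Fin 4 → F) → F) (hf₁ : Cfsg.Geo.IsSymplecticForm f₁)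
    (hf₂ : Cfsg.Geo.IsSymmetricForm f₂)
    (hminus : ¬ Cfsg.Geo.IsPlusTypeOn (fun v : Fin 4 → F => f₂ v v) ⊤)
    (hT : Cfsg.Geo.IsTensorFormStructure id (Cfsg.sympForm 4 F) f₁ f₂ e P) :
    Cfsg.Geo.IsMaximalIn (Cfsg.spGL 4 F)
      (Cfsg.Geo.tensorProductSubgroup 2 4 e P ⊓ Cfsg.spGL 4 F) :=
  symp_two_four_tensor_isMaximalIn (isSymplecticForm_sympForm 4 F) hodd hf₁ hf₂ hminus hT

theorem item9 (F₀ : Subfield F) (r : ℕ)
    (P : Matrix.GeneralLinearGroup (Fin 4 ⊕ Fin 4) F) (ζ : F) (hr : r.Prime)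
    (hcard : Fintype.card F = Nat.card F₀ ^ r) (hζ : ζ ≠ 0)
    (hP : Cfsg.Geo.IsFormRationalStructure (Cfsg.sympForm 4 F) F₀ ζ P) :
    Cfsg.Geo.IsMaximalIn (Cfsg.spGL 4 F)
      (Cfsg.Geo.subfieldSubgroup F₀ P ⊓ Cfsg.spGL 4 F) :=
  sympSubfield_isMaximalIn' (by simp) (isSymplecticForm_sympForm 4 F) hζ hP hr
    (by rwa [Nat.card_eq_fintype_card])

theorem item11 (hodd : Odd (Fintype.card F)) (h5 : 5 ≤ Fintype.card F)
    (e : (Fin 4 ⊕ Fin 4) ≃ (Fin 3 → Fin 2))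
    (P : Matrix.GeneralLinearGroup (Fin 4 ⊕ Fin 4) F) (f₁ : (Fin 2 → F) → (Fin 2 → F) → F)
    (hf₁ : Cfsg.Geo.IsSymplecticForm f₁)
    (hT : Cfsg.Geo.IsTensorPowerFormStructure id (Cfsg.sympForm 4 F) f₁ e P) :
    Cfsg.Geo.IsMaximalIn (Cfsg.spGL 4 F)
      (Cfsg.Geo.tensorWreathSubgroup 2 3 e P ⊓ Cfsg.spGL 4 F) := by
  classical
  have h2 : (2 : F) ≠ 0 := Orth.two_ne_zero_of_odd hodd
  refine TensorForm.isMaximalIn_isom_of_standard
    (f := Cfsg.sympForm 4 F) h2 hf₁ hT fun D hD => ?_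
  refine hD.isMaximalIn_of_key (by norm_num) (by decide) (by norm_num) fun M hHM hMS hnot => ?_
  have hM : TensorForm.Over D M := ⟨hHM, hMS⟩
  have h4 : Nat.card F = 3 → 4 ≤ 2 := by
    intro h3
    rw [Nat.card_eq_fintype_card] at h3
    omega
  obtain ⟨i, u, A₀, hu, ⟨g, hg, hgX⟩, hne⟩ :=
    TensorForm.exists_corner hD le_rfl (by norm_num) h4 hM hnot
  push Not at hne
  exact hM.exists_pure_root hD (by decide) hu hg hgX hne

theorem item12 (hev : ¬ Odd (Fintype.card F)) (Q : (Fin 4 ⊕ Fin 4 → F) → F)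
    (hQ : Cfsg.Geo.IsNondegenerateQuadraticForm Q)
    (hpol : ∀ u v : (Fin 4 ⊕ Fin 4 → F),
      QuadraticMap.polar Q u v = (Cfsg.sympForm 4 F) u v) :
    Cfsg.Geo.IsMaximalIn (Cfsg.spGL 4 F)
      (Cfsg.Geo.quadSimilarityGroup Q ⊓ Cfsg.spGL 4 F) := by
  have hchar : ringChar F = 2 := by
    by_contra h
    exact hev (Nat.odd_iff.mpr (FiniteField.odd_card_of_char_ne_two h))
  exact Symp.quad_isMaximalIn (isSymplecticForm_sympForm 4 F) hchar hQ.smul hpol (by simp)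

end CfsgLib.Geometric.SympEight
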