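import Cfsg.Agent.Lib.Geometric.PauliMinus.OfData
import Cfsg.Agent.Lib.Geometric.PauliMinus.Dichotomy
import Cfsg.Agent.Lib.Geometric.SympEight.Types

/-!
The normaliser in `Sp_8(p)` of a group of symplectic type of minus type is maximal.
-/

set_option autoImplicit false

namespace CfsgLib.Geometric.SympEight

open Cfsg.Geo CfsgLib.Geometric.PauliMinus

theorem item10 {F : Type*} [Field F] [Fintype F] (p : ℕ)
    (R : Subgroup (Matrix.GeneralLinearGroup (Fin 4 ⊕ Fin 4) F)) (hp : p.Prime) (hodd : Odd p)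
    (hcard : Fintype.card F = p) (hR : IsSymplecticTypeGroup 2 R)
    (habs : ActsAbsolutelyIrreducibly (matrixSet R)) (hle : R ≤ Cfsg.spGL 4 F)
    (hR128 : Nat.card R = 128) (hZ : Nat.card (Subgroup.center R) = 2)
    (hminus : IsOfMinusType 3 R) :
    IsMaximalIn (Cfsg.spGL 4 F) (subgroupNormalizer R ⊓ Cfsg.spGL 4 F) := by
  have h2 : (2 : F) ≠ 0 :=
    CfsgLib.Geometric.Orth.two_ne_zero_of_odd (show Odd (Fintype.card F) by rwa [hcard])
  obtain ⟨S, hS⟩ := exists_sys h2 hR habs hle hR128 hZ hminus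
  rw [hS]
  refine ⟨lt_of_le_of_ne S.N_le (S.N_ne_sp h2 hp hcard), fun M hNM hM => ?_⟩
  rcases S.dichotomy h2 hp hcard hNM hM with h | h
  · exact Or.inl (le_antisymm h hNM)
  · exact Or.inr h

end CfsgLib.Geometric.SympEight
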